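import Cfsg.Agent.H934.FF.XSpec
import Cfsg.Agent.H701.F43.Cent

/-!
# S2465, `F₄(3)`: `XS 3 V_J z` in `C(z)` (helper934)

`z = xc (vec 47) 1`, `V_J`, `J = {0, 1, 2}`, `C(z) = V_J ⟨X b : b ∈ C₃⟩` (helper701): `xs_CZ`, `conj_mem_VJ`.
-/

set_option autoImplicit false
set_option linter.unusedSectionVars false

namespace Cfsg.Agent.H934.FF.XCent

open CoxeterSystem Cfsg.Agent.ChevalleyStructure.CoxeterGeom Cfsg.Agent.Tits.Roots Cfsg.Agent.Tits.Core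
  Cfsg.Agent.Nodes.Reps Cfsg.Agent.Nodes.BNOf Cfsg.Agent.Nodes.RGDLib Cfsg.Agent.Nodes.Bruhat
  Cfsg.Agent.Nodes.OppDec Cfsg.Agent.Nodes.LeviDec Cfsg.Agent.Nodes.StabComb
open Cfsg.Lie Cfsg.Agent.ChevalleyStructure Cfsg.Agent.ChevalleyStructure.Elts
  Cfsg.Agent.ChevalleyStructure.CoxeterGeomTypes
  Cfsg.Agent.Nodes.RGDChev Cfsg.Agent.KFacts.RgdChevCoord Cfsg.Agent.H934.HeisChev Cfsg.Agent.H537.Pw
open Cfsg.Agent.H323.Pw Cfsg.Agent.H934.FF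

universe u

theorem J3_eq : (Cfsg.Agent.H701.F43.Cent.J3 : Set (Fin 4)) = {0, 1, 2} := by
  ext k
  show k ≠ 3 ↔ k ∈ ({0, 1, 2} : Set (Fin 4))
  fin_cases k <;> simp

/-- `C(z)` normalises `V_J` -/
theorem conj_mem_VJ {K : Type u} [Field K] [Finite K] {g : ↥(chevF4.group K)} {c : K} (hc0 : c ≠ 0)
    (hg : g * xc isType_F4 (vec chevF4 4 47) c = xc isType_F4 (vec chevF4 4 47) c * g) {x : ↥(chevF4.group K)}
    (hx : x ∈ VJ CoxeterMatrix.F₄.toCoxeterSystem isType_F4.isCartan (XX chevF4 4 K) ({0, 1, 2} : Set (Fin 4))) :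
    g * x * g⁻¹ ∈ VJ CoxeterMatrix.F₄.toCoxeterSystem isType_F4.isCartan (XX chevF4 4 K) ({0, 1, 2} : Set (Fin 4)) := by
  obtain ⟨p, hpc⟩ := CharP.exists K
  have : Fact p.Prime := ⟨CharP.char_is_prime K p⟩
  obtain ⟨v, hv, m, hm, rfl⟩ := Cfsg.Agent.H701.F43.Cent.cent (K := K) hc0 hg
  have h1 := Cfsg.Agent.H701.F43.Cent.MM_le_normalizer (K := K) p hm
  rw [← J3_eq] at hx ⊢
  have h2 : m * x * m⁻¹ ∈ Cfsg.Agent.H701.F43.Cent.VV K := (Subgroup.mem_normalizer_iff.1 h1 x).1 hx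
  have h3 : v * m * x * (v * m)⁻¹ = v * (m * x * m⁻¹) * v⁻¹ := by group
  rw [h3]
  exact mul_mem (mul_mem hv h2) (inv_mem hv)

/-- `V_J ≤ C(z)` -/
theorem VJ_le (K : Type u) [Field K] (c : K) :
    VJ CoxeterMatrix.F₄.toCoxeterSystem isType_F4.isCartan (XX chevF4 4 K) ({0, 1, 2} : Set (Fin 4)) ≤
      Subgroup.centralizer {xc isType_F4 (vec chevF4 4 47) c} := by
  rw [VJ_eq_Qg]
  rintro _ ⟨v, a, rfl⟩
  rw [Subgroup.mem_centralizer_singleton_iff, xc_eq_xe (by norm_num)]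
  show (hh K).X v * (hh K).z a * (hh K).z c = (hh K).z c * ((hh K).X v * (hh K).z a)
  rw [mul_assoc, (hh K).z_z, ← mul_assoc, (hh K).X_z, mul_assoc]

theorem mem_cz {G : Type u} [Group G] {z g : G} : g ∈ Subgroup.centralizer {z} ↔ g * z = z * g :=
  Subgroup.mem_centralizer_singleton_iff

/-- **`XS` in `C(z)`** -/
theorem xs_CZ : XS 3 ((VJ CoxeterMatrix.F₄.toCoxeterSystem isType_F4.isCartan (XX chevF4 4 (ZMod 3))
      ({0, 1, 2} : Set (Fin 4))).subgroupOf (Subgroup.centralizer {xc isType_F4 (vec chevF4 4 47) (1 : ZMod 3)}))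
    ⟨xc isType_F4 (vec chevF4 4 47) (1 : ZMod 3), Subgroup.mem_centralizer_singleton_iff.2 rfl⟩ := by
  have h47 : xc isType_F4 (vec chevF4 4 47) (1 : ZMod 3) = xe hF 47 1 := xc_eq_xe (by norm_num) 1
  have h1 := xs_gen (H := Subgroup.centralizer {xc isType_F4 (vec chevF4 4 47) (1 : ZMod 3)})
    (by rw [← VJ_eq_Qg]; exact VJ_le (ZMod 3) 1)
    (fun g hg x hx => by
      rw [← VJ_eq_Qg] at hx ⊢
      have h3 := mem_cz.1 hg
      exact conj_mem_VJ one_ne_zero h3 hx)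
    (fun g hg => by
      have h3 := mem_cz.1 hg
      rw [h47] at h3
      exact h3)
  have h2 : (⟨xc isType_F4 (vec chevF4 4 47) (1 : ZMod 3), Subgroup.mem_centralizer_singleton_iff.2 rfl⟩ :
      ↥(Subgroup.centralizer {xc isType_F4 (vec chevF4 4 47) (1 : ZMod 3)})) =
      ⟨xe hF 47 1, by rw [← h47]; exact Subgroup.mem_centralizer_singleton_iff.2 rfl⟩ := Subtype.ext h47
  rw [h2, VJ_eq_Qg]
  exact h1

end Cfsg.Agent.H934.FF.XCent
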